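import Cfsg.Agent.Lib.F2.Short
import Cfsg.Agent.Lib.F2.Suborb2

/-!
# Explicit orbits, exact suborbits from colour refinement, simplicity of primitive groups
-/

set_option autoImplicit false

namespace Cfsg.Lib.F2

open Cfsg.Lib.Calc MulAction

variable {G X : Type*} [Group G] [MulAction G X]

theorem ncard_orbit_eq (K : Subgroup G) (x : X) : (orbit K x).ncard = (stabilizer G x).relIndex K := by
  rw [← Nat.card_coe_set_eq, Nat.card_congr (orbitEquivQuotientStabilizer K x)]; rfl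

theorem ncard_orbit_dvd (N : Subgroup G) [N.Normal] (x : X) : (orbit N x).ncard ∣ (orbit G x).ncard := by
  have hidx : (stabilizer G x).index = (orbit G x).ncard := by
    rw [← Nat.card_coe_set_eq, Nat.card_congr (orbitEquivQuotientStabilizer G x)]; rfl
  have hrel : orbit ↥(stabilizer G x ⊔ N) x = orbit N x := by
    refine Set.Subset.antisymm ?_ (by rintro _ ⟨m, rfl⟩; exact ⟨⟨m, Subgroup.mem_sup_right m.2⟩, rfl⟩)
    rintro _ ⟨⟨g, hg⟩, rfl⟩
    rw [sup_comm, ← SetLike.mem_coe, Subgroup.normal_mul] at hg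
    obtain ⟨a, ha, b, hb, rfl⟩ := hg
    exact ⟨⟨a, ha⟩, by
      change a • x = (a * b) • x
      rw [mul_smul, mem_stabilizer_iff.1 hb]⟩
  rw [← hrel, ncard_orbit_eq, ← hidx]
  exact Subgroup.relIndex_dvd_index_of_le le_sup_left

/-- Simplicity of a primitive group. -/
theorem simple_of_prim' [Finite G] (x : X) (hf : ∀ g : G, (∀ y ∈ orbit G x, g • y = y) → g = 1) {n p : ℕ}
    (L : List (X × ℕ)) (hL : ∀ t ∈ L, (orbit (stabilizer G x) t.1).ncard = t.2)
    (hc : ∀ y ∈ orbit G x, y = x ∨ ∃ t ∈ L, y ∈ orbit (stabilizer G x) t.1) (hn : (orbit G x).ncard = n)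
    (hp : p.Prime) (hpn : p ∣ n) (hd : ∀ S ∈ (L.map Prod.snd).sublists', 1 + S.sum ∣ n → S.sum = 0 ∨ 1 + S.sum = n)
    (hs : ∀ N : Subgroup G, N.Normal → p ∣ Nat.card N → N = ⊤) : IsSimpleGroup G := by
  have hO : (orbit G x).Finite := Set.finite_range _
  have : Nontrivial G := by
    by_contra h
    rw [not_nontrivial_iff_subsingleton] at h
    have : orbit G x = {x} := Set.eq_singleton_iff_unique_mem.2 ⟨mem_orbit_self x, by
      rintro _ ⟨g, rfl⟩; rw [Subsingleton.elim g 1]; exact one_smul _ _⟩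
    rw [this, Set.ncard_singleton] at hn
    exact hp.one_lt.ne' (Nat.dvd_one.1 (hn ▸ hpn))
  refine ⟨fun N hN => ?_⟩
  have hB : orbit N x ⊆ orbit G x := by rintro _ ⟨m, rfl⟩; exact ⟨m, rfl⟩
  obtain ⟨S, hS, e⟩ := ncard_invariant (stabilizer G x) L hL (B := orbit N x \ {x}) (hO.subset hB).diff
    (fun b hb => (hc b (hB hb.1)).resolve_left hb.2) fun g hg b hb => ⟨by
      obtain ⟨m, rfl⟩ := hb.1
      exact ⟨⟨g * m * g⁻¹, hN.conj_mem _ m.2 g⟩, by
        change (g * m * g⁻¹) • x = g • (m : G) • x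
        rw [mul_smul, mul_smul, mem_stabilizer_iff.1 ((stabilizer G x).inv_mem hg)]⟩, fun h =>
      hb.2 (smul_left_cancel g (h.trans (mem_stabilizer_iff.1 hg).symm))⟩
  have eS : (orbit N x).ncard = 1 + S.sum := by
    rw [← e, add_comm, Set.ncard_diff_singleton_add_one (mem_orbit_self x) (hO.subset hB)]
  rcases hd S hS (eS ▸ hn ▸ ncard_orbit_dvd N x) with h0 | h1
  · rw [h0, ncard_orbit_eq, Subgroup.relIndex_eq_one] at eS
    refine Or.inl (eq_bot_iff.2 fun g hg => hf g ?_)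
    rintro _ ⟨a, rfl⟩
    have := eS (hN.conj_mem' _ hg a)
    rwa [mem_stabilizer_iff, mul_smul, mul_smul, inv_smul_eq_iff] at this
  · refine Or.inr (hs N hN (hpn.trans ?_))
    rw [← h1, ← eS, ncard_orbit_eq]
    exact Subgroup.relIndex_dvd_card _ _

theorem simple_of_prim {H : Subgroup G} [Finite H] (x : X) (hf : ∀ g ∈ H, (∀ y ∈ orbit H x, g • y = y) → g = 1)
    {n p : ℕ} (L : List (X × ℕ)) (hL : ∀ t ∈ L, (orbit ↥(H ⊓ stabilizer G x) t.1).ncard = t.2)
    (hc : ∀ y ∈ orbit H x, y = x ∨ ∃ t ∈ L, y ∈ orbit ↥(H ⊓ stabilizer G x) t.1) (hn : (orbit H x).ncard = n)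
    (hp : p.Prime) (hpn : p ∣ n) (hd : ∀ S ∈ (L.map Prod.snd).sublists', 1 + S.sum ∣ n → S.sum = 0 ∨ 1 + S.sum = n)
    (hs : SylOK H ⊥ p) : IsSimpleGroup H := by
  simp only [← orbit_stab] at hL hc
  refine simple_of_prim' x (fun g h => Subtype.ext (hf g g.2 h)) L hL hc hn hp hpn hd fun N hN h => ?_
  have := hs (N.map H.subtype) ⟨bot_le, Subgroup.map_subtype_le _, by
    rintro g hg _ ⟨m, hm, rfl⟩
    exact ⟨_, hN.conj_mem m hm ⟨g, hg⟩, rfl⟩⟩ (by
    rwa [Subgroup.relIndex_bot_left, Subgroup.card_map_of_injective H.subtype_injective])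
  exact eq_top_iff.2 fun g _ => (Subgroup.mem_map_iff_mem H.subtype_injective).1 (this g.2)

variable {d : ℕ} {code : X → ℕ}

/-- The certificate check: the columns of `P` lie in the orbit of `c`. -/
noncomputable def orbP (d n c : ℕ) (L prog Is Ks P : List ℕ) : Bool :=
  slp d L prog fun L' => mkF d (fun j => cnd (bit c j) (msk n) (nat_lit 0)) (runP d L' Is Ks fun P' => P' == P) []

theorem mem_orbit_of_orbP (hc : ∀ x, code x < 2 ^ d) {H : Subgroup G} {x : X} {n c : ℕ} (hx : code x = c)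
    {L prog Is Ks P : List ℕ} (hL : ∀ C ∈ L, Good d code H C) (h : orbP d n c L prog Is Ks P = true) :
    ∀ k < n, colN P k ∈ code '' orbit H x := by
  obtain ⟨L', h1, h2⟩ := slp_spec (Good.one hc H) (fun _ _ => Good.mul) hL h
  rw [mkF_eq, List.append_nil] at h2
  have hS : ∀ i, ∀ c ∈ code '' orbit H x, app d (nth (idM d) L' i) c ∈ code '' orbit H x := by
    rintro i _ ⟨_, ⟨g, rfl⟩, rfl⟩
    have : Good d code H (nth (idM d) L' i) := by
      rcases nth_mem (idM d) L' i with h | h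
      · rw [h]; exact Good.one hc H
      · exact h1 _ h
    obtain ⟨g', hg', hr⟩ := this
    exact ⟨_, ⟨⟨g', hg'⟩ * g, rfl⟩, by
      beta_reduce
      rw [mul_smul, ← hr]; rfl⟩
  obtain ⟨P', h3, h4⟩ := runP_spec (n := n) hS (by simp) (fun k hk => ⟨x, mem_orbit_self x, by
    rw [hx]
    refine Nat.eq_of_testBit_eq fun j => ?_
    rw [testBit_colN, getD_range_map]
    split_ifs with hj
    · rw [bit_eq]
      cases c.testBit j
      · simp
      · rw [cnd_true, msk_eq, Nat.testBit_two_pow_sub_one]; simpa using hk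
    · rw [Nat.zero_testBit]
      exact Nat.testBit_lt_two_pow (lt_of_lt_of_le (hx ▸ hc x)
        (Nat.pow_le_pow_right (by norm_num) (by omega)))⟩) h2
  rwa [beq_iff_eq.1 h4] at h3

theorem injOn_of_sortedP {n : ℕ} {P : List ℕ} (h : sortedP n P = true) : Set.InjOn (colN P) (Set.Iio (n + 1)) := by
  refine StrictMonoOn.injOn fun a _ b hb hab => ?_
  induction b, hab using Nat.le_induction with
  | base => exact sortedP_spec h (by simpa using hb)
  | succ b hab ih => exact (ih (by simp at hb ⊢; omega)).trans (sortedP_spec h (by simpa using hb))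

namespace Gr

variable {n J : ℕ} {P : List ℕ} (h : Gr G d code n J P)
include h

theorem orbit_sub {fx prog : List ℕ} {H : Subgroup G}
    (hH : ∀ g ∈ H, ∀ k ∈ fx, ∀ x, code x = colN P k → code (g • x) = code x) {k K : ℕ} (hk : k < n) {x : X}
    (hx : code x = colN P k) (hr : refChk d n J P fx prog (fun S => Nat.beq (cellM n S k) K) = true) :
    code '' orbit H x ⊆ colN P '' bitsOf K := by
  rintro _ ⟨_, ⟨g, rfl⟩, rfl⟩
  obtain ⟨S, h1, h2⟩ := h.mem_cell (hH g g.2) hr
  obtain ⟨l, hl, e, h3⟩ := h2 k hk x hx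
  exact ⟨l, Finset.mem_coe.2 (mem_bitsOf.2 (beq_iff.1 h1 ▸ testBit_cellM.2 ⟨hl, h3⟩)), e.symm⟩

/-- An orbit is a cell. -/
theorem orbit_eq {fx prog : List ℕ} {H : Subgroup G}
    (hH : ∀ g ∈ H, ∀ k ∈ fx, ∀ x, code x = colN P k → code (g • x) = code x) {k K m : ℕ} (hk : k < n) {x : X}
    (hx : code x = colN P k) (hr : refChk d n J P fx prog (fun S => Nat.beq (cellM n S k) K) = true)
    (hm : popLe m K = true) (hl : m ≤ (code '' orbit H x).ncard) :
    code '' orbit H x = colN P '' bitsOf K ∧ (code '' orbit H x).ncard = m :=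
  ⟨Set.eq_of_subset_of_ncard_le (h.orbit_sub hH hk hx hr) ((Set.ncard_image_le (Set.toFinite _)).trans
    (by rw [Set.ncard_coe_finset]; exact (popLe_spec hm).trans hl)) (Set.toFinite _),
    le_antisymm (h.orbit_le hH hk hx hr hm) hl⟩

theorem orbit_sub_range (H : Subgroup G) {k : ℕ} (hk : k < n) {x : X} (hx : code x = colN P k) :
    code '' orbit H x ⊆ colN P '' Set.Iio n := by
  rintro _ ⟨_, ⟨g, rfl⟩, rfl⟩
  obtain ⟨l, hl, e⟩ := h.act g x k hk hx
  exact ⟨l, hl, e.symm⟩

theorem ncard_range : (colN P '' Set.Iio n).ncard = n := by rw [h.inj.ncard_image]; simp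

end Gr

/-- Elements of an intersection of stabilisers fix the listed vertices. -/
theorem Coded.fix_cons (hc : Coded G d code) {P fx : List ℕ} {H : Subgroup G}
    (hH : ∀ g ∈ H, ∀ k ∈ fx, ∀ x, code x = colN P k → code (g • x) = code x) {k : ℕ} {y : X} (hy : code y = colN P k) :
    ∀ g ∈ H ⊓ stabC hc.comp y, ∀ l ∈ k :: fx, ∀ x, code x = colN P l → code (g • x) = code x := fun g hg =>
  List.forall_mem_cons.2 ⟨fun x hx => by
    rw [hc.comp g x y (hx.trans hy.symm), hx, ← hy]; exact hg.2, hH g hg.1⟩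

theorem fix_nil {P : List ℕ} {H : Subgroup G} :
    ∀ g ∈ H, ∀ k ∈ ([] : List ℕ), ∀ x, code x = colN P k → code (g • x) = code x := fun _ _ _ h =>
  absurd h List.not_mem_nil

theorem stabC_eq (hc : Coded G d code) (hi : Function.Injective code) (x : X) : stabC hc.comp x = stabilizer G x :=
  Subgroup.ext fun _ => hi.eq_iff

theorem good_stabL (hc : Coded G d code) {H : Subgroup G} {L : List ℕ} (hL : ∀ C ∈ L, Good d code H C) {x : X} {c : ℕ}
    (hx : code x = c) (h : allL L (fun C => Nat.beq (app d C c) c) = true) :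
    ∀ C ∈ L, Good d code (H ⊓ stabC hc.comp x) C := fun C hC =>
  (hL C hC).stabC (by rw [hx]; exact beq_iff.1 (allL_iff.1 h C hC))

end Cfsg.Lib.F2
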